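import Mathlib
import Cfsg.Prelude.Def_BlockLocal
import Cfsg.Agent.Lib.Blk86.Cov
import Cfsg.Agent.Lib.Block.FongInd

/-!
Perfect isometries with all signs positive.
-/

set_option autoImplicit false
set_option linter.unusedSectionVars false
set_option linter.style.haveILetI false

namespace H33.DG

open Finset Module H86 MonoidAlgebra Cfsg Function
open scoped ComplexConjugate

universe u

/-- There is a perfect isometry with positive signs from `c` onto `B`. -/
def PI (p : ℕ) (M : Ideal AlgInt) {X Y : Type u} [Group X] [Group Y] (c : Set (IrrCharacter Y))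
    (B : Set (IrrCharacter X)) : Prop :=
  ∃ (ι : Type u) (_ : Fintype ι) (a : ι → IrrCharacter X) (b : ι → IrrCharacter Y),
    Injective a ∧ Injective b ∧ Set.range a = B ∧ Set.range b = c ∧
      IsPerfectFun p M fun x y => ∑ i, (a i).1 x * (b i).1 y

variable {p : ℕ} [hp : Fact p.Prime] {M : Ideal AlgInt} [M.IsMaximal] {X Y A : Type u} [Group X]
  [Group Y] [Group A] [Finite X] [Finite Y] [Finite A] {c : Set (IrrCharacter Y)}
  {B : Set (IrrCharacter X)} {S : Set (IrrCharacter A)}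

lemma reg_map {G K : Type*} [Group G] [Finite G] [Group K] (f : G →* K) (hk : ¬ p ∣ Nat.card f.ker)
    (x : G) : IsPRegular p (f x) ↔ IsPRegular p x := by
  refine ⟨fun h e => ?_, fun h e => h (e.trans (orderOf_map_dvd f x))⟩
  have : orderOf x ∣ orderOf (f x) * Nat.card f.ker := orderOf_dvd_of_pow_eq_one (by
    rw [pow_mul]
    exact congrArg Subtype.val (pow_card_eq_one' (G := f.ker)
      (x := ⟨x ^ orderOf (f x), by simp [MonoidHom.mem_ker, pow_orderOf_eq_one]⟩)))
  exact (hp.out.dvd_mul.1 (e.trans this)).elim h hk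

lemma avg_mem_O {T : Type*} [Group T] [Fintype T] {f : T → ℂ} (hf : IsClassFunction T f)
    (h : ∀ s, f s / Nat.card (Subgroup.centralizer ({s} : Set T)) ∈ O M) :
    (Nat.card T : ℂ)⁻¹ * ∑ s, f s ∈ O M := by
  classical
  have : ∑ s, f s = ∑ K : ConjClasses T, ∑ s, H6.classInd K.out s * f s := by
    rw [sum_comm]
    refine sum_congr rfl fun s _ => ?_
    simp only [H6.classInd, isConj_out_iff]
    simp
  rw [this, mul_sum]
  refine sum_mem fun K _ => ?_
  rw [H6.sum_classInd_mul _ hf, ← (Subgroup.centralizer {K.out}).card_mul_index]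
  convert h K.out using 1
  have : ((Subgroup.centralizer ({K.out} : Set T)).index : ℂ) ≠ 0 :=
    Nat.cast_ne_zero.2 Subgroup.FiniteIndex.index_ne_zero
  push_cast
  field_simp

namespace PI

theorem symm (h : PI p M c B) : PI p M B c := by
  obtain ⟨ι, _, a, b, h1, h2, h3, h4, h5⟩ := h
  refine ⟨ι, inferInstance, b, a, h2, h1, h4, h3, fun y x => ?_⟩
  simp only [mul_comm ((b _).1 y), Iff.comm (a := IsPRegular p y)]
  exact ⟨(h5 x y).2.1, (h5 x y).1, (h5 x y).2.2⟩

theorem mod (h : PI p M c S) {Γ : Type*} {π : Γ → X} (hπ : Surjective π) (j : Γ → A) (t : Γ → ℂ)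
    (ht : ∀ y, t y ∈ O M) (hc : ∀ y, Nat.card (Subgroup.centralizer ({π y} : Set X)) ∣
      Nat.card (Subgroup.centralizer ({j y} : Set A)))
    (hr : ∀ y, IsPRegular p (π y) ↔ IsPRegular p (j y))
    (h1 : ∀ β ∈ S, ∃ χ ∈ B, ∀ y, χ.1 (π y) = β.1 (j y) * t y)
    (h2 : ∀ χ ∈ B, ∃ β ∈ S, ∀ y, χ.1 (π y) = β.1 (j y) * t y)
    (h3 : ∀ β ∈ S, ∀ β' ∈ S, (∀ y, β.1 (j y) * t y = β'.1 (j y) * t y) → β = β') :
    PI p M c B := by
  obtain ⟨ι, _, a, b, a1, b1, rfl, b2, h5⟩ := h
  choose a' e1 e2 using fun i => h1 (a i) ⟨i, rfl⟩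
  refine ⟨ι, inferInstance, a', b, fun i i' e => a1 (h3 _ ⟨i, rfl⟩ _ ⟨i', rfl⟩ fun y => by
    rw [← e2, ← e2, e]), b1, (Set.range_subset_iff.2 e1).antisymm fun χ hχ => ?_, b2, fun x z => ?_⟩
  · obtain ⟨_, ⟨i, rfl⟩, e⟩ := h2 χ hχ
    exact ⟨i, Subtype.ext (hπ.injective_comp_right (funext fun y => (e2 i y).trans (e y).symm))⟩
  obtain ⟨y, rfl⟩ := hπ x
  obtain ⟨k, hk⟩ := hc y
  obtain ⟨m1, m2, m3⟩ := h5 (j y) z
  simp only [e2, mul_right_comm _ (t y), ← sum_mul, hr]
  refine ⟨?_, ?_, m3.imp_right fun e => by rw [show ∑ i, _ = _ from e, zero_mul]⟩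
  · have h0 : (k : ℂ) ≠ 0 := Nat.cast_ne_zero.2 (by rintro rfl; exact Nat.card_pos.ne' hk)
    change _ ∈ O M
    convert mul_mem (mul_mem (show _ ∈ O M from m1) (ht y)) (natCast_mem _ k) using 1
    rw [hk]; push_cast; field_simp
  · rw [mul_div_right_comm]; exact mul_mem (show _ ∈ O M from m2) (ht y)

theorem trI (h : PI p M c S) (ψ : A ≃* X) : PI p M c (H86.trI ψ '' S) :=
  h.mod ψ.surjective id 1 (fun _ => one_mem _) (fun y => (Nat.card_congr (ψ.toEquiv.subtypeEquiv
      fun a => by simp [Subgroup.mem_centralizer_singleton_iff, ← map_mul])).symm.dvd)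
    (fun y => by simp [IsPRegular]) (fun β hβ => ⟨_, ⟨β, hβ, rfl⟩, by simp [trI_apply]⟩)
    (by rintro _ ⟨β, hβ, rfl⟩; exact ⟨β, hβ, by simp [trI_apply]⟩)
    fun β _ β' _ e => Subtype.ext (funext fun y => by simpa using e y)

theorem ind {X : Type u} [Group X] [Fintype X] {B : Set (IrrCharacter X)} {T : Subgroup X}
    {B' : Set (IrrCharacter T)} (h : PI p M c B') (hi : H34.IndRed M T B' B) : PI p M c B := by
  classical
  obtain ⟨ι, _, a, b, a1, b1, rfl, b2, h5⟩ := h
  refine ⟨ι, inferInstance, fun i => ⟨_, hi.irr (a i) ⟨i, rfl⟩⟩, b,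
    fun i i' e => a1 (hi.inj _ ⟨i, rfl⟩ _ ⟨i', rfl⟩
    (congrArg Subtype.val e)), b1, (Set.range_subset_iff.2 fun i => hi.mem ⟨i, rfl⟩).antisymm
      fun χ hχ => ?_, b2, fun x z => ?_⟩
  · obtain ⟨_, ⟨i, rfl⟩, e⟩ := hi.exists_of_mem hχ
    exact ⟨i, Subtype.ext e.symm⟩
  let f : T → ℂ := fun s => ∑ i, (a i).1 s * (b i).1 z
  have hf : IsClassFunction T f := fun s t => by simp only [f, irr_isClassFunction (a _) s t]
  have e : ∑ i, indFun T (a i).1 x * (b i).1 z = indFun T f x := by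
    rw [show f = ∑ i, (b i).1 z • (a i).1 by ext; simp [f, mul_comm], H7.indFun_sum]
    simp [H7.indFun_smul, mul_comm]
  simp only [e]
  refine ⟨?_, ?_, or_iff_not_imp_left.2 fun hr => H7.indFun_eq_zero' _ _ _ fun s hs =>
    (h5 s z).2.2.resolve_left fun e => hr ?_⟩
  · have := avg_mem_O (M := M) (f := fun s : T => if IsConj x s then f s else 0) (fun s t => by
      simp only [hf s t]
      exact if_congr ⟨fun h => h.trans (isConj_iff.2 ⟨(t : X)⁻¹, by simp [mul_assoc]⟩),
        fun h => h.trans (isConj_iff.2 ⟨t, rfl⟩)⟩ rfl rfl) fun s => by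
      split_ifs
      exacts [(h5 s z).1, by simp]
    change _ ∈ O M
    convert this using 1
    rw [H7.indFun_eq_sum_isConj, sum_filter]
    have : (Nat.card (Subgroup.centralizer ({x} : Set X)) : ℂ) ≠ 0 := H6.card_ne_zero
    field_simp
  · rw [div_eq_inv_mul, ← smul_eq_mul, ← Pi.smul_apply, ← H7.indFun_smul]
    exact H35.indFun_mem_O (H6.isClassFunction_smul _ hf)
      (fun s => by simpa [div_eq_inv_mul] using show _ ∈ O M from (h5 s z).2.1) x
  · obtain ⟨g, hg⟩ := isConj_iff.1 hs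
    rw [← e, IsPRegular, IsPRegular, ← Subgroup.orderOf_coe, ← hg, ← MulAut.conj_apply,
      MulEquiv.orderOf_eq]

theorem ker_le {ι : Type*} [Fintype ι] {a : ι → IrrCharacter X} {b : ι → IrrCharacter Y}
    (b1 : Injective b) (h : IsPerfectFun p M fun x y => ∑ i, (a i).1 x * (b i).1 y) :
    LinearMap.ker (Fintype.linearCombination ℂ fun i => pRegularPart p (b i).1) ≤
      LinearMap.ker (Fintype.linearCombination ℂ fun i => pRegularPart p (a i).1) := fun v hv => by
  classical
  letI := Fintype.ofFinite Y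
  refine funext fun x => ?_
  by_cases hx : IsPRegular p x
  swap; · simp [Fintype.linearCombination_apply, pRegularPart, hx]
  have h1 : ∀ i, classInner (∑ j, v j • (b j).1) (b i) = v i := fun i => by
    simp [H6.classInner_sum_left, H6.classInner_smul_left, H6.irr_inner', b1.eq_iff]
  have h2 : ∀ y, (∑ j, v j • (b j).1) y * ∑ i, (a i).1 x * (b i).1 y⁻¹ = 0 := fun y => by
    by_cases hy : IsPRegular p y
    · have := congrFun (LinearMap.mem_ker.1 hv) y
      simp only [Fintype.linearCombination_apply, pRegularPart, hy, Finset.sum_apply,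
        Pi.smul_apply, if_true, Pi.zero_apply] at this ⊢
      rw [this, zero_mul]
    · rw [show ∑ i, _ = _ from (h x y⁻¹).2.2.resolve_left fun e =>
        hy (by simpa [IsPRegular] using e.1 hx), mul_zero]
  simp only [Fintype.linearCombination_apply, pRegularPart, hx, Finset.sum_apply, Pi.smul_apply,
    if_true, Pi.zero_apply, smul_eq_mul]
  calc _ = (Nat.card Y : ℂ)⁻¹ * ∑ y, (∑ j, v j • (b j).1) y * ∑ i, (a i).1 x * (b i).1 y⁻¹ := by
        simp only [mul_sum]
        rw [sum_comm]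
        refine sum_congr rfl fun i _ => ?_
        rw [← h1 i, H6.classInner_def, mul_sum, sum_mul]
        exact sum_congr rfl fun y _ => by rw [irr_inv]; ring
    _ = 0 := by simp only [h2, sum_const_zero, mul_zero]

theorem final (h : PI p M c B) : Nat.card c = Nat.card B ∧ blockRank p c = blockRank p B ∧
    ∃ I ε, IsPerfectIsometry p M c B I ε := by
  obtain ⟨ι, _, a, b, a1, b1, rfl, rfl, h5⟩ := h
  refine ⟨by rw [Nat.card_range_of_injective a1, Nat.card_range_of_injective b1], ?_,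
    extend b a fun _ => oneIrr X, 1, ⟨?_, ?_, ?_⟩, fun _ _ => Or.inl rfl, ?_⟩
  · have h6 : IsPerfectFun p M fun y x => ∑ i, (b i).1 y * (a i).1 x := fun y x => by
      simp only [mul_comm ((b _).1 y), Iff.comm (a := IsPRegular p y)]
      exact ⟨(h5 x y).2.1, (h5 x y).1, (h5 x y).2.2⟩
    have e := le_antisymm (ker_le b1 h5) (ker_le a1 h6)
    have r1 := LinearMap.finrank_range_add_finrank_ker
      (Fintype.linearCombination ℂ fun i => pRegularPart p (b i).1)
    have r2 := LinearMap.finrank_range_add_finrank_ker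
      (Fintype.linearCombination ℂ fun i => pRegularPart p (a i).1)
    rw [e, ← r2, Fintype.range_linearCombination, Fintype.range_linearCombination] at r1
    rw [blockRank, blockRank, ← Set.range_comp, ← Set.range_comp]
    exact Nat.add_right_cancel r1
  · rintro _ ⟨i, rfl⟩; exact ⟨i, (b1.extend_apply _ _ i).symm⟩
  · rintro _ ⟨i, rfl⟩ _ ⟨j, rfl⟩ e
    rw [b1.extend_apply, b1.extend_apply] at e
    rw [a1 e]
  · rintro _ ⟨i, rfl⟩; exact ⟨_, ⟨i, rfl⟩, b1.extend_apply _ _ i⟩
  · convert h5 using 3 with x y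
    rw [signedBijectionKernel, finsum_mem_range b1]
    simp [finsum_eq_sum_of_fintype, b1.extend_apply]

theorem refl (hM : IsPModular p M) {N : Subgroup A} [N.Normal] [Fintype N] (hN : ¬ p ∣ Nat.card N)
    {θ : IrrCharacter N} (hθ : ∀ g : A, H35.cjI g θ = θ) :
    PI p M (H35.upSet A {θ}) (H35.upSet A {θ}) := by
  classical
  set S := H35.upSet A {θ}
  have hA : ∀ g : A, ∀ ψ ∈ ({θ} : Set (IrrCharacter N)), H35.cjI g ψ ∈ ({θ} : Set _) := by
    rintro g _ rfl; exact hθ g
  have hO : fB S ∈ OG M A := fun g => by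
    rw [coeff_fB]
    by_cases hg : g ∈ N
    · rw [H35.blockCoeff_upSet_coe hA ⟨g, hg⟩]
      exact blockCoeff_mem_O (H34.isPBlock_singleton hM hN θ) _
    · rw [H35.blockCoeff_upSet_of_not_mem hA hg]; exact zero_mem _
  have key : ∀ x y, (∑ i : S, i.1.1 x * i.1.1 y) / Nat.card (Subgroup.centralizer ({x} : Set A)) =
      (fB S * classSum ℂ x).coeff y⁻¹ := fun x y => by
    rw [((isCent_fB S).mul (isCent_classSum x)).coeff_eq_sum, ← sum_subtype (univ.filter (· ∈ S))
      (by simp) fun i : IrrCharacter A => i.1 x * i.1 y, sum_filter, sum_div, mul_sum]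
    refine sum_congr rfl fun χ _ => ?_
    rw [omega_cent_mul _ (isCent_fB S), omega_fB, omega_classSum (irr_isClassFunction χ),
      ← irr_inv, inv_inv, centralChar, ← (Subgroup.centralizer {x}).card_mul_index]
    have : ((Subgroup.centralizer ({x} : Set A)).index : ℂ) ≠ 0 :=
      Nat.cast_ne_zero.2 Subgroup.FiniteIndex.index_ne_zero
    have := irr_one_ne_zero χ
    split_ifs
    · push_cast; field_simp
    · simp
  refine ⟨S, inferInstance, Subtype.val, Subtype.val, Subtype.val_injective, Subtype.val_injective,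
    Subtype.range_coe, Subtype.range_coe, fun x y => ⟨?_, ?_, or_iff_not_imp_right.2 fun h => ?_⟩⟩
  · exact key x y ▸ mul_mem hO (classSum_mem_OG x) _
  · simp only [fun i : S => mul_comm (i.1.1 x)]
    exact key y x ▸ mul_mem hO (classSum_mem_OG y) _
  obtain ⟨a, a1, a2⟩ := exists_of_coeff_mul_ne_zero (key x y ▸ div_ne_zero h H6.card_ne_zero)
  have a3 : a ∈ N := by_contra fun e => a1 (H35.blockCoeff_upSet_of_not_mem hA e)
  obtain ⟨g, hg⟩ := isConj_iff.1 (by_contra fun e => a2 (coeff_classSum_of_not_isConj e))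
  have hk : ¬ p ∣ Nat.card (QuotientGroup.mk' N).ker := by rwa [QuotientGroup.ker_mk']
  have := congrArg (fun z => orderOf (QuotientGroup.mk' N z)) hg
  simp only [map_mul, map_inv, show QuotientGroup.mk' N a = 1 from (QuotientGroup.eq_one_iff a).2 a3,
    _root_.inv_one, one_mul, orderOf_inv] at this
  rw [← MulAut.conj_apply, MulEquiv.orderOf_eq] at this
  rw [← reg_map _ hk x, ← reg_map _ hk y, IsPRegular, IsPRegular, this]

end PI

end H33.DG
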