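import Mathlib
import Cfsg.Agent.Lib.DadeGl.CExt
import Cfsg.Agent.Lib.DadeGl.Perf

/-!
Blocks of `p`-solvable groups with abelian defect groups.
-/

set_option autoImplicit false
set_option linter.unusedSectionVars false
set_option linter.style.haveILetI false

attribute [local irreducible] H33.instFieldF

namespace H33.DG

open Finset Module H86 MonoidAlgebra Cfsg Function H31

universe u

variable {p : ℕ} [hp : Fact p.Prime] {M : Ideal AlgInt} [M.IsMaximal]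

lemma card_cen_dvd {Γ G : Type*} [Group Γ] [Finite Γ] [Group G] {π : Γ →* G} (hs : Surjective π)
    (hz : π.ker ≤ Subgroup.center Γ) (y : Γ) : Nat.card (Subgroup.centralizer ({π y} : Set G)) ∣
      Nat.card (Subgroup.centralizer ({y} : Set Γ)) := by
  set A := (Subgroup.centralizer ({π y} : Set G)).comap π
  have hA : ∀ a : A, a * y * (a : Γ)⁻¹ * y⁻¹ ∈ π.ker := fun a => by
    simp [MonoidHom.mem_ker, Subgroup.mem_centralizer_singleton_iff.1 a.2]
  let f : A →* π.ker := MonoidHom.mk' (fun a => ⟨_, hA a⟩) fun a b => Subtype.ext (by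
    have := Subgroup.mem_center_iff.1 (hz (hA b)) (y * (a : Γ)⁻¹ * y⁻¹)
    calc _ = a * (b * y * (b : Γ)⁻¹ * y⁻¹ * (y * (a : Γ)⁻¹ * y⁻¹)) := by simp [mul_assoc]
      _ = _ := by rw [← this]; simp [mul_assoc])
  have h1 : Nat.card f.ker = Nat.card (Subgroup.centralizer ({y} : Set Γ)) := by
    rw [← Nat.card_congr (Subgroup.subgroupOfEquivOfLe (show _ ≤ A from fun a ha => by
      simpa [A, Subgroup.mem_centralizer_singleton_iff, ← map_mul] using
        congrArg π (Subgroup.mem_centralizer_singleton_iff.1 ha))).toEquiv]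
    congr 2; ext a
    simp [f, Subtype.ext_iff, mul_inv_eq_iff_eq_mul, Subgroup.mem_subgroupOf,
      Subgroup.mem_centralizer_singleton_iff]
  have h2 := f.ker.card_mul_index
  obtain ⟨k, hk⟩ := f.range.card_subgroup_dvd_card
  rw [Subgroup.index_ker, h1, H1.card_comap_of_surjective hs, hk, mul_comm _ k, ← mul_assoc] at h2
  exact ⟨k, Nat.eq_of_mul_eq_mul_right Nat.card_pos h2⟩

lemma mem_upSet_hom {Γ : Type*} [Group Γ] [Finite Γ] {K : Subgroup Γ} [K.Normal] [Fintype K]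
    {ν : K →* ℂˣ} (hν : ∀ g : Γ, H35.cjI g ⟨_, H6.isIrrCharacter_hom ν⟩ = ⟨_, H6.isIrrCharacter_hom ν⟩)
    {β : IrrCharacter Γ} : β ∈ H35.upSet Γ {⟨_, H6.isIrrCharacter_hom ν⟩} ↔
      ∀ n : K, β.1 n = β.1 1 * ν n := by
  rw [H34.mem_upSet_singleton]
  refine ⟨fun h n => ?_, fun h => (inner_res_of_eq_mul K (H6.isIrrCharacter_hom ν) h).trans_ne
    (irr_one_ne_zero β)⟩
  have := H35.res_eq_smul_of_invariant β hν h
  rw [this, show β.1 1 = _ from this 1]
  simp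

theorem PI.cext {Y Γ G Δ : Type u} [Group Y] [Finite Y] [Group Γ] [Finite Γ] [Group G] [Finite G]
    [Group Δ] [Finite Δ] {c : Set (IrrCharacter Y)} {K : Subgroup Γ} [hK : K.Normal] [Fintype K]
    {ν : K →* ℂˣ} (hν : ∀ g : Γ, H35.cjI g ⟨_, H6.isIrrCharacter_hom ν⟩ = ⟨_, H6.isIrrCharacter_hom ν⟩)
    (h : PI p M c (H35.upSet Γ {⟨_, H6.isIrrCharacter_hom ν⟩})) {N : Subgroup G} [N.Normal]
    [Fintype N] {θ : IrrCharacter N} {π : Δ →* G} {τ : Δ → ℂ} {μ : N.comap π →* ℂˣ}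
    (hc : IsCentralExt N θ.1 π τ μ) (hZ : ¬ p ∣ Nat.card π.ker) {j : Δ →* Γ} (hj : Injective j)
    (hs : ∀ x, ∃ n : K, ∃ y, ν n = 1 ∧ x = n * j y) (hN : ∀ y, j y ∈ K ↔ π y ∈ N)
    (hμ : ∀ y h, μ y = ν ⟨j y, h⟩) : PI p M c (H35.upSet G {θ}) := by
  letI := Fintype.ofFinite Δ
  letI := Fintype.ofFinite (N.comap π)
  haveI : (ν.ker.map K.subtype).Normal := ⟨by
    rintro _ ⟨n, hn, rfl⟩ g
    exact ⟨⟨_, hK.conj_mem n n.2 g⟩, Units.ext ((congrFun (congrArg Subtype.val (hν g)) n).trans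
      (congrArg Units.val hn)), rfl⟩⟩
  let q := QuotientGroup.mk' (ν.ker.map K.subtype)
  have q1 : ∀ x, q x = 1 ↔ x ∈ ν.ker.map K.subtype := QuotientGroup.eq_one_iff
  have q2 : Surjective (q.comp j) := fun a => by
    obtain ⟨x, rfl⟩ := QuotientGroup.mk'_surjective _ a
    obtain ⟨n, y, h1, rfl⟩ := hs x
    exact ⟨y, by rw [map_mul, (q1 n).2 ⟨n, h1, rfl⟩, one_mul]; rfl⟩
  have e0 : ((fun x : N.comap π => (μ x : ℂ)) * fun x : N.comap π => τ x) =
      fun x : N.comap π => θ.1 ⟨π x, x.2⟩ := funext fun x => by rw [← hc.eq, mul_comm]; rfl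
  have g := gallagher_bijOn (N.comap π) (H6.isIrrCharacter_hom μ)
    (fun g n => congrArg Units.val (hc.inv g n)) (e0 ▸ hc.isIrr_comp θ.2)
    (H6.irr_isCharacter hc.irr) fun _ => rfl
  have r1 : ∀ β ∈ H35.upSet Γ {⟨_, H6.isIrrCharacter_hom ν⟩}, ∀ x : N.comap π,
      β.1 (j x) = β.1 1 * μ x := fun β hβ x => by
    rw [hμ x ((hN x).2 x.2), ← (mem_upSet_hom hν).1 hβ]
  have r2 : ∀ β ∈ H35.upSet Γ {⟨_, H6.isIrrCharacter_hom ν⟩}, IsIrrCharacter Δ (fun y => β.1 (j y)) ∧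
      classInner (indFun (N.comap π) fun x => (μ x : ℂ)) (fun y => β.1 (j y)) ≠ 0 := fun β hβ => by
    obtain ⟨β', b1, b2⟩ := exists_irr_descend q (QuotientGroup.mk'_surjective _) β.2 fun z hz => by
      obtain ⟨n, hn, rfl⟩ := (q1 z).1 hz
      simpa [show ν n = 1 from hn] using (mem_upSet_hom hν).1 hβ n
    have : IsIrrCharacter Δ fun y => β.1 (j y) := by
      simp only [← b2]; exact H6.isIrrCharacter_comp_surjective _ q2 b1
    exact ⟨this, (inner_indFun_ne_zero_iff _ _ (H6.irr_isClassFunction this)).2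
      ((inner_res_of_eq_mul _ (H6.isIrrCharacter_hom μ) (β := fun y => β.1 (j y)) (r1 β hβ)).trans_ne
        (irr_one_ne_zero β))⟩
  refine h.mod hc.surj j τ (fun y => irr_mem_O M ⟨_, hc.irr⟩ y)
    (fun y => (card_cen_dvd hc.surj hc.central y).trans ?_)
    (fun y => by rw [reg_map π hZ, IsPRegular, IsPRegular, orderOf_injective j hj])
    (fun β hβ => ?_) (fun χ hχ => ?_) fun β hβ β' hβ' e => Subtype.ext (funext fun x => ?_)
  · refine (congrArg (fun A : Subgroup Δ => Nat.card A) ?_).dvd.trans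
      (Subgroup.card_comap_dvd_of_injective _ j hj)
    ext a; simp [Subgroup.mem_centralizer_singleton_iff, ← map_mul, hj.eq_iff]
  · have e1 : ∀ x : N.comap π, β.1 (j x) * τ x = β.1 1 * θ.1 ⟨π x, x.2⟩ := fun x => by
      rw [r1 β hβ, ← hc.eq]; ring
    obtain ⟨χ, c1, c2⟩ := exists_irr_descend π hc.surj (g.mapsTo (r2 β hβ)).1 fun z hz => by
      refine (e1 ⟨z, by simp [hz]⟩).trans (Eq.trans ?_ (e1 1).symm)
      simp [hz]
    refine ⟨⟨χ, c1⟩, H34.mem_upSet_singleton.2 ((inner_res_of_eq_mul N θ.2 fun n => ?_).trans_ne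
      (irr_one_ne_zero β)), c2⟩
    obtain ⟨y, hy⟩ := hc.surj n
    exact (hy ▸ c2 y).trans ((e1 ⟨y, by simp [hy]⟩).trans (by simp [hy]))
  · obtain ⟨β, e, b1, b2, b3, b4⟩ := hc.exists_irr_over_hom θ.2 χ.2 (H34.mem_upSet_singleton.1 hχ)
    obtain ⟨β', b5, b6⟩ := exists_irr_descend (q.comp j) q2 b1 fun z hz => by
      obtain ⟨n, hn, e⟩ := (q1 _).1 hz
      rw [b3 ⟨z, (hN z).1 (e ▸ n.2)⟩, hμ _ (e ▸ n.2), b2]
      simp [← e, show ν n = 1 from hn]
    refine ⟨⟨_, H6.isIrrCharacter_comp_surjective q (QuotientGroup.mk'_surjective _) b5⟩,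
      (mem_upSet_hom hν).2 fun n => ?_, fun y => (b4 y).trans (by rw [← b6]; rfl)⟩
    obtain ⟨m, y, h1, h2⟩ := hs n
    have h3 : j y ∈ K := by rw [eq_inv_mul_of_mul_eq h2.symm]; exact (m⁻¹ * n).2
    have h4 : n = m * ⟨_, h3⟩ := Subtype.ext h2
    have := b6 1
    simp only [map_one] at this ⊢
    rw [this, b2, h2, map_mul, (q1 m).2 ⟨m, h1, rfl⟩, one_mul, h4, map_mul, h1, one_mul,
      ← hμ ⟨y, (hN y).1 h3⟩, ← b3, ← b6]
    rfl
  · have := g.injOn (r2 β hβ) (r2 β' hβ') (funext e)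
    obtain ⟨n, y, h1, rfl⟩ := hs x
    rw [H6.char_mul_of_eq_one (H6.irr_isCharacter β.2) (by
      simpa [h1] using (mem_upSet_hom hν).1 hβ n), H6.char_mul_of_eq_one (H6.irr_isCharacter β'.2)
      (by simpa [h1] using (mem_upSet_hom hν).1 hβ' n), congrFun this y]

variable {G : Type u} [Group G] [Finite G] {N : Subgroup G} [hn : N.Normal] [Fintype N]

theorem base (hM : IsPModular p M) (hN : ¬ p ∣ Nat.card N) {θ : IrrCharacter N}
    (hθ : ∀ g : G, H35.cjI g θ = θ) {P D H : Subgroup G} (hP : IsPGroup p P) (hD : D = N ⊓ Cen P)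
    (hH : H ≤ Nor P) (hDH : D ≤ H) [(D.subgroupOf H).Normal] [Fintype (D.subgroupOf H)]
    (hG : ∀ g, ∃ n ∈ N, ∃ h ∈ H, n * h = g) {θ' : IrrCharacter D}
    (h : eS M D {θ'} = br P (eS M N {θ})) :
    PI p M (H35.upSet H {trI (Subgroup.subgroupOfEquivOfLe hDH).symm θ'}) (H35.upSet G {θ}) := by
  obtain ⟨Γ, _, _, π, τ, ν, hc, hν⟩ := exists_cext N θ.2 fun g n =>
    congrFun (congrArg Subtype.val (hθ g)) n
  have hm : ¬ p ∣ Nat.card N * Nat.card N := fun e => (hp.out.dvd_mul.1 e).elim hN hN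
  have hZ := not_dvd_ker hc hν hm
  obtain ⟨τ', ν', hc', e⟩ := dg_cext hM hN hc hν hm hP hD hH hDH h
  obtain ⟨ι, i1, i2, -⟩ := exists_sec hc
  letI := Fintype.ofFinite (N.comap π)
  have hi : ∀ g : Γ, H35.cjI g ⟨_, H6.isIrrCharacter_hom ν⟩ = ⟨_, H6.isIrrCharacter_hom ν⟩ :=
    fun g => Subtype.ext (funext fun n => congrArg Units.val (hc.inv g n))
  have hN' : ∀ y : H.comap π, (y : Γ) ∈ N.comap π ↔ π y ∈ D := fun y => ⟨fun h => hD.ge ⟨h,
    H34.mem_Cen_of_mem_Nor hN hP (by rw [Nor, Subgroup.normalizer_eq_top]; exact le_top) h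
      (hH y.2)⟩, fun h => (hD.le h).1⟩
  refine ((PI.refl hM (by rw [H1.card_comap_of_surjective hc.surj, hp.out.dvd_mul]; tauto) hi).cext
    hi (θ := trI (Subgroup.subgroupOfEquivOfLe hDH).symm θ') hc'
    (not_dvd_ker hc' (fun x => by rw [e x ((hN' _).2 x.2), hν]) hm) (H.comap π).subtype_injective
    (fun x => ?_) hN' e).symm.cext hi hc hZ (j := MonoidHom.id Γ) injective_id
    (fun x => ⟨1, x, map_one ν, (one_mul x).symm⟩) (fun _ => Iff.rfl) fun _ _ => rfl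
  obtain ⟨n, hn, k, hk, e⟩ := hG (π x)
  exact ⟨⟨ι ⟨n, hn⟩, by simp [i1, hn]⟩, ⟨(ι ⟨n, hn⟩)⁻¹ * x, by simp [i1, ← e, hk]⟩, i2 _ _, by simp⟩

/-- The Fong–Reynolds correspondence in terms of idempotents. -/
theorem exists_fr {G : Type u} [Group G] [Fintype G] {N T : Subgroup G} [N.Normal] [Fintype N]
    (hM : IsPModular p M) {b : Set (IrrCharacter N)} (h : H35.IsStab M b T)
    {B : Set (IrrCharacter G)} (hB : IsPBlock M B) (hc : eB M B * eS M N b ≠ 0) :
    ∃ B', H34.IndRed M T B' B ∧ eS M T B' = eB M B * eS M N b := by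
  classical
  obtain ⟨B', hB', hc', hind⟩ := h.block_surj hB ((covers_iff hB h.blk).2 hc)
  have i1 := fun ψ (hψ : ψ ∈ B') => h.isIrr_of_mem hB' hc' hψ
  have i2 := fun ψ (hψ : ψ ∈ B') ψ' (hψ' : ψ' ∈ B') => h.inj_of_mem hB' hc' hB' hc' hψ hψ'
  refine ⟨B', ⟨hB', hind, h.eq_indSet hM hc' hind, i1, i2⟩, ?_⟩
  have nN : ∀ g, g ∈ Nor N := fun g => by rw [Nor, Subgroup.normalizer_eq_top]; trivial
  have hb := isBlk_eS h.blk
  have h1 : ∀ g, cj g (eS M N b) = eS M N b ↔ g ∈ T := fun g => by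
    rw [← T.inv_mem_iff, h.mem, ← inv_inv g, ← eS_cjS, inv_inv]
    refine ⟨fun e θ hθ => (eS_inj (H35.isPBlock_cjS _ h.blk) h.blk e).le ⟨θ, hθ, rfl⟩, fun e => ?_⟩
    obtain ⟨θ, hθ⟩ := block_nonempty h.blk
    rw [block_eq_of_mem (H35.isPBlock_cjS _ h.blk) h.blk ⟨θ, hθ, rfl⟩ (e θ hθ)]
  have h2 : eS M T B' * eS M N b = eS M T B' := by
    have := (coversIn_iff h.le (fun g _ => nN g) hB' h.blk).1 hc'
    rw [(eS_mem_Zc T B').2.comm (hb.supp.mono h.le)] at this ⊢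
    exact (isBlk_eS hB').mul_eq_of_ne_zero ⟨hb.supp.mono h.le, inv_iff_cj.2 fun g hg =>
      (h1 g).2 hg⟩ hb.idem this
  have h3 : eB M B = ∑ q : G ⧸ T, cj q.out (eS M T B') := by
    simp only [← redA_fS, ← redA_cj]
    rw [← redA_sum _ fun q _ => cj_mem_OG _ (fS_mem_OG hB'), eB]
    refine congrArg _ (alg_ext fun g => ?_)
    rw [coeff_fB, h.eq_indSet hM hc' hind, H35.blockCoeff_indSet i1 i2, H7.indFun_eq_sum_quotient _
      (blockCoeff_conj B'), coeff_sum_apply]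
    refine sum_congr rfl fun q _ => ?_
    rw [coeff_cj, coeff_fS, subgroupBlockCoeff]
    split_ifs with e
    exacts [H7.extendByZero_of_mem _ _ e, H7.extendByZero_of_not_mem _ _ e]
  rw [h3, sum_mul, sum_eq_single_of_mem ((1 : G) : G ⧸ T) (mem_univ _) fun q _ hq => ?_,
    (eS_mem_Zc T B').2.cj_eq (by simpa using QuotientGroup.eq.1 (QuotientGroup.out_eq' ((1 : G) : G ⧸ T)).symm),
    h2]
  rw [← h2, map_mul, mul_assoc, (hb.cj_of_mem_Nor (nN _)).mul_eq_zero (isComm_Zc N) hb fun e =>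
    hq ?_, mul_zero]
  rw [← QuotientGroup.out_eq' q, eq_comm, QuotientGroup.eq]
  simpa using (h1 _).1 e

theorem pi_main (hM : IsPModular p M) {G : Type u} [Group G] [Finite G] (hG : IsPSolvable p G)
    {B : Set (IrrCharacter G)} (hB : IsPBlock M B) {P H : Subgroup G} (hP : IsDefectGroup p M B P)
    (hab : P ≤ Cen P) (hH : H = Nor P) {c : Set (IrrCharacter H)} (hc : IsPBlock M c)
    (h : eS M H c = br P (eB M B)) : PI p M c B := by
  induction hn : Nat.card G using Nat.strong_induction_on generalizing G with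
  | _ n ih =>
  classical
  haveI := charP hM
  letI := Fintype.ofFinite G
  set N := pPrimeCore p G
  have hN : ¬ p ∣ Nat.card N := H1.not_dvd_card_pPrimeCore
  have nN : ∀ g, g ∈ Nor N := fun g => by rw [Nor, Subgroup.normalizer_eq_top]; trivial
  have hD := (H86.isDefectGroup_iff hB P).1 hP
  obtain ⟨e, he, e1, e2, e3, -⟩ := hD.exists_covered (isBlk_eB hB) (N := N) le_top fun g _ => nN g
  obtain ⟨b, hb, rfl⟩ := he.exists_eS
  obtain ⟨θ, hθ⟩ := block_nonempty hb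
  obtain rfl := block_eq_of_mem (H34.isPBlock_singleton hM hN θ) hb rfl hθ
  obtain ⟨θ', h'⟩ := exists_glaub hM hN hD.pgrp (fun g _ => nN g) e1 rfl
  have hK : ¬ p ∣ Nat.card (N ⊓ Cen P : Subgroup G) := fun e =>
    hN (e.trans (Subgroup.card_dvd_of_le inf_le_left))
  have l1 : N ⊓ Cen P ≤ H := hH ▸ inf_le_right.trans (Cen_le_Nor P)
  have l2 : H ≤ Nor (N ⊓ Cen P) := fun g h => mem_Nor_inf (nN _) (Nor_le_Nor_Cen _ (hH ▸ h))
  haveI := Subgroup.normal_subgroupOf_of_le_normalizer l2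
  have hT : ∀ g, cj g (eS M N {θ}) = eS M N {θ} ↔ H35.cjI g θ = θ := fun g =>
    (cj_eS_iff hM hN θ (nN g)).trans ⟨fun h => Subtype.ext (funext fun n => h _ _ rfl),
      fun h c c' e => (congrArg _ (Subtype.ext e)).trans (congrFun (congrArg Subtype.val h) c)⟩
  set θ₁ := trI (Subgroup.subgroupOfEquivOfLe l1).symm θ'
  have h₁ : emb H.subtype (eS M _ {θ₁}) = br P (eS M N {θ}) := by
    rw [← Set.image_singleton, eS_subgroupOf, h']
  have hT' : ∀ g : H, H35.cjI g θ₁ = θ₁ ↔ H35.cjI (g : G) θ = θ := fun g => by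
    have e4 : cj (g : G) (eS M _ {θ'}) = br P (cj (g : G) (eS M N {θ})) := by
      rw [h', cj_br, mem_Nor_iff_cs.1 (hH ▸ g.2)]
    have e5 : Inv P (cj (g : G) (eS M N {θ})) := mem_Nor_iff_cs.1 (hH.le g.2) ▸ e1.cj g
    rw [← hT]
    refine Iff.trans ?_ ((cj_eS_iff hM hK θ' (l2 g.2)).symm.trans ⟨fun e => ?_, fun e => by
      rw [e4, e, h']⟩)
    · exact ⟨fun h c c' e => (congrArg _ (Subtype.ext e)).trans (congrFun (congrArg Subtype.val h)
        ⟨⟨c, l1 c.2⟩, c.2⟩), fun h => Subtype.ext (funext fun n => h _ _ rfl)⟩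
    · have hb' := isBlk_eS (H34.isPBlock_singleton hM hK θ')
      exact blk_over_unique hD.pgrp (he.cj_of_mem_Nor (nN g)) he e5 e1 hb'.ne
        (by rw [← e4, e, hb'.idem]) (by rw [← h', hb'.idem])
  have hb₁ : IsPBlock M {θ₁} := by
    rw [← Set.image_singleton]; exact isPBlock_image_trI _ (H34.isPBlock_singleton hM hK θ')
  have hst := H35.isStab_blkStab (G := G) hb
  set T := H35.blkStab G ({θ} : Set (IrrCharacter N))
  have mT : ∀ g, g ∈ T ↔ H35.cjI g θ = θ := fun g => by simp [hst.mem]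
  by_cases hTt : T = ⊤
  · have hi : ∀ g, H35.cjI g θ = θ := fun g => (mT g).1 (hTt ▸ Subgroup.mem_top g)
    have hG' := H23.IsPConstrained.charP_top (H23.isPConstrained_of_isPSolvable hG)
    obtain ⟨χ, hχ, hχ'⟩ := (covers_iff hB hb).2 e3
    obtain rfl := block_eq_of_mem (H34.isPBlock_upSet hM hN hG' hi) hB hχ' hχ
    obtain rfl : H35.upSet H {θ₁} = c := eq_of_eB_eq (H35.fB_upSet_mem_OG hb₁) (fB_mem_OG hc)
      (emb_injective H.subtype_injective (by
        rw [H34.eB_upSet_singleton fun g => (hT' g).2 (hi g), h₁, ← eS, h,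
          H34.eB_upSet_singleton hi]))
    refine base hM hN hi hD.pgrp rfl hH.le l1 (fun g => ?_) h'
    obtain ⟨S, rfl⟩ := ((H34.isDefectGroup_iff_isSyl hM hN hi hB P).1 hP).exists_sylow_top
    have h1 : pCore p (G ⧸ N) ≤ (S : Subgroup G).map (QuotientGroup.mk' N) :=
      H70.pCore_le_sylow (S.mapSurjective (QuotientGroup.mk'_surjective N))
    have h2 : (pCore p (G ⧸ N)).comap (QuotientGroup.mk' N) = N ⊔ S := by
      rw [le_antisymm h1 (le_trans (by
        rintro _ ⟨x, hx, rfl⟩ y hy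
        obtain ⟨z, hz, rfl⟩ := h1 hy
        rw [← map_mul, ← map_mul, hab hx z hz]) (H70.charP_top_iff.1 hG')),
        Subgroup.comap_map_eq, QuotientGroup.ker_mk', sup_comm]
    have h3 := S.normalizer_sup_eq_top' (h2.ge.trans' le_sup_right)
    rw [h2, sup_left_comm, ← S.coe_coe, sup_of_le_left Subgroup.le_normalizer] at h3
    exact hH ▸ Subgroup.mem_sup_of_normal_left.1 (h3 ▸ Subgroup.mem_top g)
  have hPT : P ≤ T := fun g hg => (mT g).2 ((hT g).1 (e1.cj_eq hg))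
  obtain ⟨B', r1, r2⟩ := exists_fr hM hst hB e3
  have r3 : br P (eS M T B') = eS M H c * br P (eS M N {θ}) := by
    rw [r2, br_mul hD.pgrp ((isBlk_eB hB).inv.anti le_top) e1, h]
  have r4 : eS M H c * br P (eS M N {θ}) ≠ 0 := by
    rwa [(eS_mem_Zc H c).2.comm ((br_mem_Fx (eS_mem_Zc N _)).1.mono l1), h]
  obtain ⟨c', r5, r6⟩ := exists_fr hM (T := T.subgroupOf H) ⟨hb₁, fun g => by
    simp [Subgroup.mem_subgroupOf, mT, hT']⟩ hc fun e => r4 (by
      rw [← h₁, eS, ← map_mul, e, map_zero])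
  let ψ : T.subgroupOf H ≃* H.subgroupOf T :=
    ⟨⟨fun x => ⟨⟨x.1.1, x.2⟩, x.1.2⟩, fun x => ⟨⟨x.1.1, x.2⟩, x.1.2⟩, fun _ => rfl, fun _ => rfl⟩,
      fun _ _ => rfl⟩
  obtain ⟨D, hD'⟩ := exists_defectGroup p r1.blk
  have := ih _ (hn ▸ lt_of_le_of_ne (Subgroup.card_le_card_group T) fun e =>
    hTt (Subgroup.eq_top_of_card_eq T e)) (H76.isPSolvable_subgroup hG T) r1.blk
    ((isDefectGroup_subgroupOf_iff r1.blk hPT).2 (((isDefectGroup_sub_iff r1.blk D).1 hD').of_card_le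
      (eS_mem_Zc _ _).2 hPT hD.pgrp (r3 ▸ r4)
      (((H86.isDefectGroup_iff hB _).1 (r1.isDefectGroup hM hD')).card_eq hD).le))
    (by rw [Cen_subgroupOf hPT]; exact Subgroup.comap_mono hab) (H := H.subgroupOf T)
    (by rw [Nor_subgroupOf hPT, hH]) (isPBlock_image_trI ψ r5.blk)
    (emb_injective T.subtype_injective (by
      rw [← br_emb T.subtype_injective, Subgroup.map_subgroupOf_eq_of_le hPT, ← eS, r3, ← h₁,
        eS.eq_1 M H, ← map_mul, ← r6, eS, eS, eB_image_trI, emb_comp, emb_comp, emb_comp]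
      rfl)) rfl
  have h2 := ((this.ind r1).symm.trI ψ.symm)
  rw [Set.image_image] at h2
  exact (PI.ind (by simpa [show ∀ ξ, trI ψ.symm (trI ψ ξ) = ξ from fun _ => rfl] using h2) r5).symm

end H33.DG
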